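import Cfsg.Agent.H0.TCSuz5.D0
set_option maxRecDepth 100000
namespace H0.TCSuz5
open H0
noncomputable def tS : Tr := (.node (.node s0 s1) (.node s2 s3))
noncomputable def tJ : Tr := (.node (.node j0 j1) (.node j2 j3))
noncomputable def tQ : Tr := (.node (.node q0 q1) (.node q2 q3))
noncomputable def tR : TC.WTr := (.node (.node r0 r1) (.node r2 r3))
def hl : List ℕ := [0, 1, 2, 3, 5, 6]
def B : List (List ℕ) := [[0, 0], [1, 1], [2, 2], [3, 3], [4, 4], [5, 5], [6, 6], [0, 1, 0, 1, 0, 1, 0, 1, 0, 1], [0, 2, 0, 2], [0, 3, 0, 3], [0, 4, 0, 4], [0, 5, 0, 5], [0, 6, 0, 6], [1, 2, 1, 2, 1, 2], [1, 3, 1, 3], [1, 4, 1, 4], [1, 5, 1, 5, 1, 5], [1, 6, 1, 6, 1, 6], [2, 3, 2, 3, 2, 3, 2, 3, 2, 3, 2, 3, 2, 3, 2, 3], [2, 4, 2, 4], [2, 5, 2, 5], [2, 6, 2, 6], [3, 4, 3, 4, 3, 4], [3, 5, 3, 5], [3, 6, 3, 6], [4, 5, 4, 5], [4, 6,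 4, 6], [5, 6, 5, 6, 5, 6, 5, 6], [0, 3, 2, 3, 2, 3, 2, 3, 2], [0, 6, 5, 6, 5], [0, 1, 2, 5, 0, 1, 2, 5, 0, 1, 2, 5, 0, 1, 2, 5, 0, 1, 2, 5], [1, 5, 6, 1, 5, 6, 1, 5, 6, 1, 5, 6, 1, 5, 6], [1, 2, 3, 2, 3, 1, 2, 3, 2, 3, 1, 2, 3, 2, 3, 1, 2, 3, 2, 3, 1, 2, 3, 2, 3, 4, 1, 2, 3, 2, 3, 1, 2, 3, 2, 3, 1, 2, 3, 2, 3, 1, 2, 3, 2, 3, 1, 2, 3, 2, 3, 4, 1, 2, 3, 2, 3, 1, 2, 3, 2, 3, 1, 2, 3, 2, 3, 1, 2, 3, 2, 3, 1, 2, 3, 2, 3, 4]]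
def subs : List (List ℕ) := [[0], [1], [2], [3], [5], [6]]
def ex : List (List ℕ) := []
def inv (x : ℕ) : ℕ := [0, 1, 2, 3, 4, 5, 6].getD x 0
noncomputable def rS : ℕ → ℕ := rowOf tS (nat_lit 7) (nat_lit 127) (nat_lit 184) (nat_lit 24519928653854221733733552434404946937899825954937634815)
noncomputable def rJ : ℕ → ℕ := rowOf tJ (nat_lit 7) (nat_lit 127) (nat_lit 72) (nat_lit 4722366482869645213695)
noncomputable def C : TC.Cfg where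
  S := look rS (nat_lit 23) (nat_lit 8388607)
  J := look rJ (nat_lit 8) (nat_lit 255)
  Q := lookQ tQ (nat_lit 7) (nat_lit 23) (nat_lit 8388607)
  R := tR.get
  hl := fun x => hl.contains x
  n := (nat_lit 22880)
  M := (nat_lit 27991)
  top := (nat_lit 7165696)
  nl := (nat_lit 7)
  need := (nat_lit 7)
  nr := (nat_lit 33)
end H0.TCSuz5
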