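import Cfsg.Agent.H0.TCSuz5.D
set_option maxRecDepth 100000
namespace H0.TCSuz5
open H0
theorem k0 : TC.chkRange C 0 78 = true := by decide +kernel
theorem k1 : TC.chkRange C 78 78 = true := by decide +kernel
theorem k2 : TC.chkRange C 156 78 = true := by decide +kernel
theorem k3 : TC.chkRange C 234 78 = true := by decide +kernel
theorem k4 : TC.chkRange C 312 78 = true := by decide +kernel
theorem k5 : TC.chkRange C 390 48 = true := by decide +kernel
end H0.TCSuz5
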