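import Cfsg.Agent.H0.TCSuz5.K0
set_option maxRecDepth 100000
namespace H0.TCSuz5
open H0
theorem rows0 : ∀ c < (0 + 78) * 64, c < C.M → TC.chkRow C c = true :=
  TC.rows_step (TC.rows_zero C) k0
theorem rows1 : ∀ c < (78 + 78) * 64, c < C.M → TC.chkRow C c = true :=
  TC.rows_step (rows0) k1
theorem rows2 : ∀ c < (156 + 78) * 64, c < C.M → TC.chkRow C c = true :=
  TC.rows_step (rows1) k2
theorem rows3 : ∀ c < (234 + 78) * 64, c < C.M → TC.chkRow C c = true :=
  TC.rows_step (rows2) k3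
theorem rows4 : ∀ c < (312 + 78) * 64, c < C.M → TC.chkRow C c = true :=
  TC.rows_step (rows3) k4
theorem rows5 : ∀ c < (390 + 48) * 64, c < C.M → TC.chkRow C c = true :=
  TC.rows_step (rows4) k5
theorem main {G : Type*} [Group G] (g : ℕ → G) (hB : ∀ r ∈ B, ev g r = 1) (H : Subgroup G)
    (hH : ∀ w ∈ subs, ev g w ∈ H) :
    H.relIndex (Subgroup.closure (g '' {x | x < 7})) ≠ 0 ∧
      H.relIndex (Subgroup.closure (g '' {x | x < 7})) ≤ 22880 :=
  TC.index_le C B subs ex inv hl tR.hint rfl (by decide +kernel) (by decide +kernel)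
    (TC.rows_done rows5 (by decide +kernel)) g hB H hH
end H0.TCSuz5
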